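import Mathlib
import Cfsg.Agent.BrauerInd.FSInd

/-!
An irreducible character of indicator one is afforded by a real representation.
-/

set_option autoImplicit false
set_option linter.style.haveILetI false
set_option linter.unusedSectionVars false

namespace CfsgLib.BrauerInd

open Matrix
open scoped ComplexConjugate ComplexOrder

universe u

variable {G : Type u} [Group G] [Fintype G] {n : ℕ}

/-- Entrywise conjugation. -/
noncomputable def bar : Matrix (Fin n) (Fin n) ℂ →+* Matrix (Fin n) (Fin n) ℂ :=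
  (starRingEnd ℂ).mapMatrix

theorem bar_apply (M : Matrix (Fin n) (Fin n) ℂ) (i j : Fin n) : bar M i j = conj (M i j) := rfl

theorem bar_bar (M : Matrix (Fin n) (Fin n) ℂ) : bar (bar M) = M := by
  ext i j; simp [bar_apply]

theorem bar_smul (c : ℂ) (M : Matrix (Fin n) (Fin n) ℂ) : bar (c • M) = conj c • bar M := by
  ext i j; simp [bar_apply]

theorem bar_eq (M : Matrix (Fin n) (Fin n) ℂ) : bar M = Mᴴᵀ := by
  ext i j; simp [bar_apply, Matrix.conjTranspose_apply, Complex.star_def]

/-- An invariant symmetric form forces a real structure. -/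
theorem exists_real_basis (ρ : Representation ℂ G (Fin n → ℂ)) [ρ.IsIrreducible]
    {M : Matrix (Fin n) (Fin n) ℂ} (hM : M ∈ invForms (matHom ρ)) (hne : M ≠ 0) (hsym : Mᵀ = M) :
    ∃ P Q : Matrix (Fin n) (Fin n) ℂ, P * Q = 1 ∧
      ∀ g, bar (Q * matHom ρ g * P) = Q * matHom ρ g * P := by
  classical
  set A := matHom ρ with hA
  have hAinv : ∀ g, A g⁻¹ * A g = 1 := fun g => by rw [← map_mul, inv_mul_cancel, map_one]
  have hAinv' : ∀ g, A g * A g⁻¹ = 1 := fun g => by rw [← map_mul, mul_inv_cancel, map_one]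
  -- invariant positive definite Hermitian form
  set H : Matrix (Fin n) (Fin n) ℂ := ∑ g : G, (A g)ᴴ * A g with hHdef
  have hH : H.PosDef := by
    refine Matrix.posDef_sum Finset.univ_nonempty fun g _ => ?_
    refine Matrix.PosDef.conjTranspose_mul_self _ fun v w hvw => ?_
    have := congrArg ((A g⁻¹).mulVec) hvw
    simpa [Matrix.mulVec_mulVec, hAinv] using this
  have hHinv : ∀ g, (A g)ᴴ * H * A g = H := fun g => by
    simp only [hHdef, Finset.mul_sum, Finset.sum_mul]
    refine Fintype.sum_equiv (Equiv.mulRight g) _ _ fun h => ?_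
    simp [map_mul, Matrix.conjTranspose_mul, Matrix.mul_assoc]
  have hHd : IsUnit H.det := (Matrix.isUnit_iff_isUnit_det H).1 hH.isUnit
  set K := H⁻¹ * bar M with hK
  have hMg : ∀ g, (A g)ᴴ * bar M * bar (A g) = bar M := fun g => by
    have h := congrArg bar (mem_invForms.1 hM g)
    rw [map_mul, map_mul] at h
    have e : bar (A g)ᵀ = (A g)ᴴ := rfl
    rwa [e] at h
  have hKA : ∀ g, A g * K = K * bar (A g) := fun g => by
    have h2 : H * A g = (A g⁻¹)ᴴ * H := by
      conv_rhs => rw [← hHinv g]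
      rw [← Matrix.mul_assoc, ← Matrix.mul_assoc, ← Matrix.conjTranspose_mul, hAinv',
        Matrix.conjTranspose_one, Matrix.one_mul]
    have h3 : bar M * bar (A g) = (A g⁻¹)ᴴ * bar M := by
      conv_rhs => rw [← hMg g]
      rw [← Matrix.mul_assoc, ← Matrix.mul_assoc, ← Matrix.conjTranspose_mul, hAinv',
        Matrix.conjTranspose_one, Matrix.one_mul]
    have h4 : A g = H⁻¹ * (A g⁻¹)ᴴ * H := by
      rw [Matrix.mul_assoc, ← h2, ← Matrix.mul_assoc, Matrix.nonsing_inv_mul H hHd, Matrix.one_mul]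
    conv_lhs => rw [h4]
    rw [hK, Matrix.mul_assoc _ (bar M), h3, Matrix.mul_assoc (H⁻¹ * (A g⁻¹)ᴴ) H,
      ← Matrix.mul_assoc H, Matrix.mul_nonsing_inv H hHd, Matrix.one_mul, Matrix.mul_assoc]
  -- `K * bar K` is a scalar
  have hcomm : ∀ g, A g * (K * bar K) = K * bar K * A g := fun g => by
    have h1 : bar (A g) * bar K = bar K * A g := by
      rw [← map_mul, hKA, map_mul, bar_bar]
    rw [← Matrix.mul_assoc, hKA, Matrix.mul_assoc, h1, ← Matrix.mul_assoc]
  obtain ⟨lam, hlam, -⟩ := CharBasics.commute_eq_scalar ρ (Matrix.toLin' (K * bar K)) fun g => by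
    have : ρ g = Matrix.toLin' (A g) := by rw [hA, matHom_apply, Matrix.toLin'_toMatrix']
    rw [this, ← Matrix.toLin'_mul, ← Matrix.toLin'_mul, hcomm]
  have hscal : K * bar K = lam • (1 : Matrix (Fin n) (Fin n) ℂ) := by
    apply Matrix.toLin'.injective
    rw [hlam, map_smul, Matrix.toLin'_one]
  -- the scalar is positive
  have hq : Mᴴ * (H⁻¹)ᵀ * M = lam • H := by
    have h := congrArg (H * ·) hscal
    rw [hK, map_mul, bar_bar, ← Matrix.mul_assoc H (H⁻¹ * bar M), ← Matrix.mul_assoc H H⁻¹,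
      Matrix.mul_nonsing_inv H hHd,
      Matrix.one_mul, Matrix.mul_smul, Matrix.mul_one, ← Matrix.mul_assoc] at h
    have e1 : bar M = Mᴴ := by
      conv_lhs => rw [← hsym]
      rfl
    have e2 : bar H⁻¹ = (H⁻¹)ᵀ := by rw [bar_eq, hH.inv.isHermitian.eq]
    rwa [e1, e2] at h
  obtain ⟨v, hv⟩ : ∃ v, M *ᵥ v ≠ 0 := by
    by_contra h
    push Not at h
    refine hne (Matrix.toLin'.injective ?_)
    rw [map_zero]
    exact LinearMap.ext fun v => by rw [Matrix.toLin'_apply, h v, LinearMap.zero_apply]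
  have hv0 : v ≠ 0 := fun h => hv (by rw [h, Matrix.mulVec_zero])
  have hpos1 : 0 < star v ⬝ᵥ ((Mᴴ * (H⁻¹)ᵀ * M) *ᵥ v) := by
    have := hH.inv.transpose.dotProduct_mulVec_pos hv
    simpa only [← Matrix.mulVec_mulVec, Matrix.dotProduct_mulVec, Matrix.star_mulVec,
      Matrix.vecMul_vecMul] using this
  have hpos2 := hH.dotProduct_mulVec_pos hv0
  rw [hq, Matrix.smul_mulVec, dotProduct_smul, smul_eq_mul] at hpos1
  rw [Complex.pos_iff] at hpos1 hpos2
  simp only [Complex.mul_re, Complex.mul_im, ← hpos2.2, mul_zero, sub_zero, zero_add] at hpos1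
  have hre : 0 < lam.re := pos_of_mul_pos_left hpos1.1 hpos2.1.le
  have him : lam.im = 0 := (mul_eq_zero.1 hpos1.2.symm).resolve_right hpos2.1.ne'
  set s : ℂ := (((Real.sqrt lam.re)⁻¹ : ℝ) : ℂ) with hs
  have hss : s * s * lam = 1 := by
    have hl : lam = (lam.re : ℂ) := Complex.ext rfl (by simpa using him)
    have hr2 : (Real.sqrt lam.re)⁻¹ * (Real.sqrt lam.re)⁻¹ * lam.re = 1 := by
      rw [← mul_inv, Real.mul_self_sqrt hre.le, inv_mul_cancel₀ hre.ne']
    calc s * s * lam = (((Real.sqrt lam.re)⁻¹ * (Real.sqrt lam.re)⁻¹ * lam.re : ℝ) : ℂ) := by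
          rw [Complex.ofReal_mul, Complex.ofReal_mul, ← hl]
      _ = 1 := by rw [hr2, Complex.ofReal_one]
  set L := s • K with hL
  have hLA : ∀ g, A g * L = L * bar (A g) := fun g => by
    rw [hL, Matrix.mul_smul, Matrix.smul_mul, hKA]
  have hLL : L * bar L = 1 := by
    rw [hL, bar_smul, Matrix.smul_mul, Matrix.mul_smul, smul_smul, hscal, smul_smul,
      show conj s = s from Complex.conj_ofReal _, hss, one_smul]
  -- Hilbert 90
  let c : ℝ → ℂ := fun t => (t : ℂ) + Complex.I
  have hc0 : ∀ t, conj (c t) ≠ 0 := fun t h => by simpa [c] using congrArg Complex.im h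
  have hinj : Function.Injective fun t => -(c t / conj (c t)) := by
    intro a b hab
    simp only [neg_inj] at hab
    rw [div_eq_div_iff (hc0 a) (hc0 b)] at hab
    have := congrArg Complex.im hab
    simp [c] at this
    linarith
  obtain ⟨z, ⟨t, rfl⟩, hz⟩ :=
    (Set.infinite_range_of_injective hinj).exists_notMem_finset L.charpoly.roots.toFinset
  set P := c t • (1 : Matrix (Fin n) (Fin n) ℂ) + conj (c t) • L with hP
  have hPd : IsUnit P.det := by
    rw [isUnit_iff_ne_zero]
    have : P = (-conj (c t)) • (Matrix.scalar (Fin n) (-(c t / conj (c t))) - L) := by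
      rw [hP, smul_sub, Matrix.scalar_apply, ← Matrix.smul_one_eq_diagonal,
        smul_smul (-conj (c t)) (-(c t / conj (c t))) (1 : Matrix (Fin n) (Fin n) ℂ),
        neg_mul_neg, mul_div_cancel₀ _ (hc0 t), neg_smul, sub_neg_eq_add]
    rw [this, Matrix.det_smul, ← Matrix.eval_charpoly]
    refine mul_ne_zero (pow_ne_zero _ (neg_ne_zero.2 (hc0 t))) fun h0 => hz ?_
    rw [Multiset.mem_toFinset, Polynomial.mem_roots L.charpoly_monic.ne_zero]
    exact h0
  have hLP : L * bar P = P := by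
    rw [hP, map_add, bar_smul, bar_smul, map_one, Complex.conj_conj, Matrix.mul_add,
      Matrix.mul_smul, Matrix.mul_smul, Matrix.mul_one, hLL, add_comm]
  refine ⟨P, P⁻¹, Matrix.mul_nonsing_inv P hPd, fun g => ?_⟩
  have hQ : P⁻¹ * L = bar P⁻¹ := by
    calc P⁻¹ * L = P⁻¹ * (L * bar P) * bar P⁻¹ := by
          rw [Matrix.mul_assoc, Matrix.mul_assoc L, ← map_mul, Matrix.mul_nonsing_inv P hPd,
            map_one, Matrix.mul_one]
      _ = _ := by rw [hLP, Matrix.nonsing_inv_mul P hPd, Matrix.one_mul]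
  rw [map_mul, map_mul, ← hQ, Matrix.mul_assoc P⁻¹ L, ← hLA, Matrix.mul_assoc, Matrix.mul_assoc,
    hLP, Matrix.mul_assoc]

/-- An irreducible character of indicator one is afforded by a real representation. -/
theorem exists_real_of_ind_one {χ : G → ℂ} (h : Cfsg.IsIrrCharacter G χ) (h1 : ind χ = 1) :
    ∃ (n : ℕ) (ρ : Representation ℝ G (Fin n → ℝ)),
      ∀ g : G, ((LinearMap.trace ℝ (Fin n → ℝ) (ρ g) : ℝ) : ℂ) = χ g := by
  obtain ⟨n, ρ, hirr, rfl⟩ := id h
  have hreal : ∀ g, (ρ.character g).im = 0 := fun g => by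
    by_contra hg
    rw [ind_nonreal h ⟨g, hg⟩] at h1
    norm_num at h1
  have hf := (finrank_invForms_irr ρ h).1 hreal
  obtain ⟨⟨M, hM⟩, hne, -⟩ := finrank_eq_one_iff'.1 hf
  have hT := (transpose_eq_ind _ hf hM).1
  rw [trace_matHom, h1, one_smul] at hT
  obtain ⟨P, Q, hPQ, hbar⟩ := exists_real_basis ρ hM (fun h0 => hne (Subtype.ext h0)) hT
  let R : G → Matrix (Fin n) (Fin n) ℝ := fun g => (Q * matHom ρ g * P).map Complex.re
  have hR : ∀ g, Complex.ofRealHom.mapMatrix (R g) = Q * matHom ρ g * P := fun g => by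
    ext i j
    exact Complex.conj_eq_iff_re.1 (congrFun (congrFun (hbar g) i) j)
  have hinj : Function.Injective
      (Complex.ofRealHom.mapMatrix : Matrix (Fin n) (Fin n) ℝ →+* Matrix (Fin n) (Fin n) ℂ) :=
    Matrix.map_injective Complex.ofReal_injective
  have hQP : Q * P = 1 := mul_eq_one_comm.1 hPQ
  let σ : Representation ℝ G (Fin n → ℝ) :=
    { toFun := fun g => Matrix.toLin' (R g)
      map_one' := by
        have : R 1 = 1 := hinj (by rw [hR, map_one (matHom ρ), Matrix.mul_one, hQP, map_one])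
        rw [this, Matrix.toLin'_one]; rfl
      map_mul' := fun a b => by
        have : R (a * b) = R a * R b := hinj (by
          rw [map_mul, hR, hR, hR, map_mul (matHom ρ)]
          calc Q * (matHom ρ a * matHom ρ b) * P = Q * matHom ρ a * 1 * matHom ρ b * P := by
                simp [Matrix.mul_assoc]
            _ = _ := by rw [← hPQ]; simp [Matrix.mul_assoc])
        rw [this, Matrix.toLin'_mul]; rfl }
  refine ⟨n, σ, fun g => ?_⟩
  show ((LinearMap.trace ℝ _ (Matrix.toLin' (R g)) : ℝ) : ℂ) = _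
  rw [Matrix.trace_toLin'_eq]
  calc ((R g).trace : ℂ) = (Complex.ofRealHom.mapMatrix (R g)).trace := by
        simp [Matrix.trace, RingHom.mapMatrix_apply]
    _ = (matHom ρ g).trace := by
        rw [hR, Matrix.trace_mul_comm, ← Matrix.mul_assoc, hPQ, Matrix.one_mul]
    _ = _ := congrFun (trace_matHom ρ) g

end CfsgLib.BrauerInd
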