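import Mathlib

/-!
Landau's theorem: the order of a finite group is bounded in terms of its number of conjugacy classes.
-/

set_option autoImplicit false

namespace CfsgLib.BrauerInd

theorem exists_bound_inv_sum : ∀ (k : ℕ) (r : ℚ), ∃ B : ℕ, ∀ s : Multiset ℕ, Multiset.card s ≤ k →
    (∀ n ∈ s, 0 < n) → (s.map fun n : ℕ => (1 : ℚ) / (n : ℚ)).sum = r → ∀ n ∈ s, n ≤ B := by
  intro k
  induction k with
  | zero =>
    exact fun r => ⟨0, fun s hs _ _ n hn => by
      rw [Multiset.card_eq_zero.1 (Nat.le_zero.1 hs)] at hn; simp at hn⟩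
  | succ k ih =>
    intro r
    by_cases hr : 0 < r
    swap
    · refine ⟨0, fun s _ hpos hsum n hn => ?_⟩
      exfalso
      apply hr
      rw [← hsum, ← Multiset.cons_erase hn, Multiset.map_cons, Multiset.sum_cons]
      refine add_pos_of_pos_of_nonneg (by have := hpos n hn; positivity) (Multiset.sum_nonneg ?_)
      intro x hx
      obtain ⟨m, _, rfl⟩ := Multiset.mem_map.1 hx
      positivity
    choose B hB using fun n : ℕ => ih (r - 1 / n)
    set N := ⌈((k : ℚ) + 1) / r⌉₊ with hN
    refine ⟨max N ((Finset.range (N + 1)).sup B), fun s hs hpos hsum n hn => ?_⟩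
    obtain ⟨m, hm, hmin⟩ : ∃ m ∈ s, ∀ x ∈ s, m ≤ x := by
      have hne : s.toFinset.Nonempty := ⟨n, Multiset.mem_toFinset.2 hn⟩
      exact ⟨s.toFinset.min' hne, Multiset.mem_toFinset.1 (s.toFinset.min'_mem hne),
        fun x hx => s.toFinset.min'_le x (Multiset.mem_toFinset.2 hx)⟩
    have hm0 : (0 : ℚ) < m := by exact_mod_cast hpos m hm
    have hle : r ≤ ((k : ℚ) + 1) * (1 / m) := by
      rw [← hsum]
      refine (Multiset.sum_le_card_nsmul _ ((1 : ℚ) / m) ?_).trans ?_
      · intro x hx
        obtain ⟨y, hy, rfl⟩ := Multiset.mem_map.1 hx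
        exact one_div_le_one_div_of_le hm0 (by exact_mod_cast hmin y hy)
      · rw [Multiset.card_map, nsmul_eq_mul]
        exact mul_le_mul_of_nonneg_right (by exact_mod_cast hs) (by positivity)
    have hmN : m ≤ N := by
      have h1 : (m : ℚ) ≤ ((k : ℚ) + 1) / r := by
        rw [mul_one_div] at hle
        rw [le_div_iff₀ hr]
        rw [le_div_iff₀ hm0] at hle
        linarith
      rw [hN]; exact_mod_cast h1.trans (Nat.le_ceil _)
    rw [← Multiset.cons_erase hm] at hn
    rcases Multiset.mem_cons.1 hn with rfl | hn'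
    · exact le_max_of_le_left hmN
    · refine le_max_of_le_right ((hB m (s.erase m) ?_ (fun x hx => hpos x (Multiset.mem_of_mem_erase hx))
        ?_ n hn').trans (Finset.le_sup (Finset.mem_range.2 (Nat.lt_succ_of_le hmN))))
      · rw [Multiset.card_erase_of_mem hm]
        exact Nat.pred_le_iff.2 hs
      · rw [← hsum, eq_sub_iff_add_eq, add_comm]
        conv_rhs => rw [← Multiset.cons_erase hm, Multiset.map_cons, Multiset.sum_cons]

/-- Landau: for every `k` there is a bound on the order of finite groups with at most `k` classes. -/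
theorem landau (k : ℕ) : ∃ B : ℕ, ∀ (G : Type*) [Group G] [Finite G],
    Nat.card (ConjClasses G) ≤ k → Nat.card G ≤ B := by
  obtain ⟨B, hB⟩ := exists_bound_inv_sum k 1
  refine ⟨B, fun G _ _ hk => ?_⟩
  classical
  haveI := Fintype.ofFinite G
  haveI := Fintype.ofFinite (ConjClasses G)
  let idx : ConjClasses G → ℕ := fun c => Nat.card G / Nat.card c.carrier
  have hsize : ∀ c : ConjClasses G, 0 < Nat.card c.carrier ∧ Nat.card c.carrier ∣ Nat.card G := by
    intro c
    obtain ⟨g, rfl⟩ := ConjClasses.mk_surjective c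
    have h : Nat.card (ConjClasses.mk g).carrier = (MulAction.stabilizer (ConjAct G) g).index := by
      rw [MulAction.index_stabilizer, ← Nat.card_coe_set_eq, ConjAct.orbit_eq_carrier_conjClasses]
    rw [h]
    exact ⟨Nat.pos_of_ne_zero Subgroup.index_ne_zero_of_finite, Subgroup.index_dvd_card _⟩
  have hG : (0 : ℚ) < Nat.card G := by exact_mod_cast Nat.card_pos
  have h1 : Nat.card (ConjClasses.mk (1 : G)).carrier = 1 := by
    rw [Nat.card_eq_one_iff_unique]
    refine ⟨⟨fun a b => Subtype.ext ?_⟩, ⟨⟨1, ConjClasses.mem_carrier_mk⟩⟩⟩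
    have ha := a.2; have hb := b.2
    rw [ConjClasses.mem_carrier_iff_mk_eq, ConjClasses.mk_eq_mk_iff_isConj, isConj_one_left] at ha hb
    rw [ha, hb]
  have := hB (Finset.univ.val.map idx) (by
      rw [Multiset.card_map]; simpa [Nat.card_eq_fintype_card] using hk) (fun n hn => by
      obtain ⟨c, _, rfl⟩ := Multiset.mem_map.1 hn
      exact Nat.div_pos (Nat.le_of_dvd Nat.card_pos (hsize c).2) (hsize c).1) ?_ (Nat.card G) ?_
  · exact this
  · rw [Multiset.map_map]
    show ∑ c : ConjClasses G, (1 : ℚ) / ((Nat.card G / Nat.card c.carrier : ℕ) : ℚ) = 1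
    have : ∀ c : ConjClasses G, (1 : ℚ) / ((Nat.card G / Nat.card c.carrier : ℕ) : ℚ) =
        (Nat.card c.carrier : ℚ) / Nat.card G := by
      intro c
      rw [Nat.cast_div (hsize c).2 (by exact_mod_cast (hsize c).1.ne'), one_div_div]
    rw [Finset.sum_congr rfl fun c _ => this c, ← Finset.sum_div, div_eq_one_iff_eq hG.ne']
    have h := sum_conjClasses_card_eq_card G
    simp only [Set.toFinset_card, ← Nat.card_eq_fintype_card] at h
    exact_mod_cast h
  · refine Multiset.mem_map.2 ⟨ConjClasses.mk 1, Finset.mem_univ _, ?_⟩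
    show Nat.card G / _ = _
    rw [h1, Nat.div_one]

end CfsgLib.BrauerInd
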