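import Cfsg.Agent.BrauerInd.Quasi
import Cfsg.Agent.BrauerInd.Induction

/-!
Brauer's local induction theorem: some multiple, prime to `p`, of the constant function one is induced from
`p`-elementary subgroups.
-/

set_option autoImplicit false
set_option linter.unusedVariables false

namespace CfsgLib.BrauerLocal

open CfsgLib.BrauerInd CfsgLib.IndFun

universe u

variable {G : Type u} [Group G]

/-- `H` has a cyclic normal subgroup of order prime to `p` and `p`-power index, for some prime `p`. -/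
def IsQEp (p : ℕ) (H : Subgroup G) : Prop :=
  p.Prime ∧ ∃ C : Subgroup G, C ≤ H ∧ H ≤ Subgroup.normalizer (C : Set G) ∧ IsCyclic C ∧
    (Nat.card C).Coprime p ∧ ∃ k : ℕ, C.relIndex H = p ^ k

theorem IsQEp.mono [Finite G] {p : ℕ} {H K : Subgroup G} (h : IsQEp p H) (hK : K ≤ H) : IsQEp p K := by
  obtain ⟨hp, C, hCH, hHN, hcyc, hco, k, hk⟩ := h
  have hdvd : (C ⊓ K).relIndex K ∣ C.relIndex H := by
    rw [Subgroup.inf_relIndex_right, ← Subgroup.relIndex_subgroupOf hK]
    have : (C.subgroupOf H).Normal := (Subgroup.normal_subgroupOf_iff_le_normalizer hCH).2 hHN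
    exact Subgroup.relIndex_dvd_index_of_normal _ _
  rw [hk] at hdvd
  obtain ⟨j, -, hj⟩ := (Nat.dvd_prime_pow hp).1 hdvd
  refine ⟨hp, C ⊓ K, inf_le_right, ?_, ?_, ?_, j, hj⟩
  · intro x hx
    rw [Subgroup.mem_normalizer_iff]
    intro y
    have h1 := Subgroup.mem_normalizer_iff.1 (hHN (hK hx)) y
    refine ⟨fun hy => ⟨h1.1 hy.1, K.mul_mem (K.mul_mem hx hy.2) (K.inv_mem hx)⟩, fun hy => ⟨h1.2 hy.1, ?_⟩⟩
    have h2 := K.mul_mem (K.mul_mem (K.inv_mem hx) hy.2) hx
    simpa [mul_assoc] using h2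
  · exact isCyclic_of_injective (Subgroup.inclusion (inf_le_left : C ⊓ K ≤ C))
      (Subgroup.inclusion_injective _)
  · exact Nat.Coprime.coprime_dvd_left (Subgroup.card_dvd_of_le inf_le_left) hco

/-- The additive group generated by the permutation characters of quasi-elementary subgroups. -/
def qeRingP (p : ℕ) (G : Type u) [Group G] : AddSubgroup (G → ℤ) :=
  AddSubgroup.closure {f | ∃ H : Subgroup G, IsQEp p H ∧ f = permChar H}

theorem card_fixedBy_mem_qeRingP [Finite G] {p : ℕ} {X : Type*} [MulAction G X] [Finite X]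
    (hX : ∀ x : X, IsQEp p (MulAction.stabilizer G x)) :
    (fun g => (Nat.card (MulAction.fixedBy X g) : ℤ)) ∈ qeRingP p G := by
  classical
  let Ω := MulAction.orbitRel.Quotient G X
  have : Fintype Ω := Fintype.ofFinite _
  have h : (fun g => (Nat.card (MulAction.fixedBy X g) : ℤ)) =
      ∑ ω : Ω, permChar (MulAction.stabilizer G ω.out) := by
    funext g
    simp only [Finset.sum_apply, permChar, ← stabilizer_orbit_fiber, ← Nat.cast_sum, ← Nat.card_sigma]
    norm_cast
    exact Nat.card_congr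
      { toFun := fun x => ⟨Quotient.mk'' x.1, x.1, x.2, rfl⟩
        invFun := fun s => ⟨s.2.1, s.2.2.1⟩
        left_inv := fun _ => rfl
        right_inv := fun ⟨ω, x, hx, hω⟩ => by cases hω; rfl }
  rw [h]
  exact AddSubgroup.sum_mem _ fun ω _ => AddSubgroup.subset_closure ⟨_, hX _, rfl⟩

theorem qeRingP_mul [Finite G] {p : ℕ} {a b : G → ℤ} (ha : a ∈ qeRingP p G) (hb : b ∈ qeRingP p G) :
    a * b ∈ qeRingP p G := by
  have key : ∀ H K : Subgroup G, IsQEp p H → permChar H * permChar K ∈ qeRingP p G := by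
    intro H K hH
    have : permChar H * permChar K =
        fun g => (Nat.card (MulAction.fixedBy ((G ⧸ H) × (G ⧸ K)) g) : ℤ) := by
      funext g
      simp only [Pi.mul_apply, permChar, ← Nat.cast_mul, ← Nat.card_prod]
      norm_cast
      exact Nat.card_congr
        { toFun := fun x => ⟨(x.1.1, x.2.1), Prod.ext x.1.2 x.2.2⟩
          invFun := fun y => (⟨y.1.1, congrArg Prod.fst y.2⟩, ⟨y.1.2, congrArg Prod.snd y.2⟩)
          left_inv := fun _ => rfl
          right_inv := fun _ => rfl }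
    rw [this]
    apply card_fixedBy_mem_qeRingP
    rintro ⟨q, r⟩
    induction q using QuotientGroup.induction_on with
    | H c =>
      obtain ⟨hp, C, hCH, hHN, hcyc, hco, k, hk⟩ := hH
      let φ : G →* G := (MulAut.conj c).toMonoidHom
      have hφ : Function.Injective φ := (MulAut.conj c).injective
      have hc : IsQEp p (H.map φ) := by
        refine ⟨hp, C.map φ, Subgroup.map_mono hCH,
          (Subgroup.map_mono hHN).trans (Subgroup.le_normalizer_map φ),
          isCyclic_of_surjective (C.equivMapOfInjective φ hφ).toMonoidHom (MulEquiv.surjective _),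
          by rwa [Subgroup.card_map_of_injective hφ], k, ?_⟩
        rw [Subgroup.relIndex_map_map_of_injective _ _ hφ, hk]
      refine hc.mono fun g hg => ?_
      have h1 : g • (QuotientGroup.mk c : G ⧸ H) = QuotientGroup.mk c := congrArg Prod.fst hg
      have h2 : (c⁻¹ * (g * c)) ∈ H := QuotientGroup.eq.1 h1.symm
      exact ⟨_, h2, by simp [φ, mul_assoc]⟩
  have h1 : ∀ H, IsQEp p H → permChar H * b ∈ qeRingP p G := by
    intro H hH
    have : qeRingP p G ≤ (qeRingP p G).comap (AddMonoidHom.mulLeft (permChar H)) :=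
      (AddSubgroup.closure_le _).2 (by rintro _ ⟨K, -, rfl⟩; exact key H K hH)
    exact this hb
  have : qeRingP p G ≤ (qeRingP p G).comap (AddMonoidHom.mulRight b) :=
    (AddSubgroup.closure_le _).2 (by rintro _ ⟨H, hH, rfl⟩; exact h1 H hH)
  exact this ha

theorem exists_permChar_not_dvd [Finite G] (x : G) (p : ℕ) [Fact p.Prime] :
    ∃ H : Subgroup G, IsQEp p H ∧ ¬ (p : ℤ) ∣ permChar H x := by
  classical
  have hp : p.Prime := Fact.out
  obtain ⟨a, m, hm, hn⟩ := Nat.exists_eq_pow_mul_and_not_dvd (orderOf_pos x).ne' p hp.ne_one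
  have hoy : orderOf (x ^ p ^ a) = m := by
    rw [orderOf_pow, hn, Nat.gcd_eq_right (dvd_mul_right _ _), Nat.mul_div_cancel_left _ (pow_pos hp.pos a)]
  set C := Subgroup.zpowers (x ^ p ^ a) with hC
  have hCc : Nat.card C = m := by rw [hC, Nat.card_zpowers, hoy]
  set N := Subgroup.normalizer (C : Set G) with hN
  have hxN : x ∈ N := by
    rw [hN, Subgroup.mem_normalizer_iff]
    intro h
    constructor
    · intro hh
      obtain ⟨k, rfl⟩ := Subgroup.mem_zpowers_iff.1 hh
      refine Subgroup.mem_zpowers_iff.2 ⟨k, ?_⟩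
      rw [eq_mul_inv_iff_mul_eq]
      exact (((Commute.refl x).pow_left _).zpow_left k).eq
    · intro hh
      obtain ⟨k, hk⟩ := Subgroup.mem_zpowers_iff.1 hh
      refine Subgroup.mem_zpowers_iff.2 ⟨k, ?_⟩
      have e1 : h = x⁻¹ * ((x ^ p ^ a) ^ k) * x := by rw [hk]; group
      rw [e1, mul_assoc, (((Commute.refl x).pow_left _).zpow_left k).eq, inv_mul_cancel_left]
  let C' := C.subgroupOf N
  have hCN : C ≤ N := Subgroup.le_normalizer
  have : C'.Normal := (Subgroup.normal_subgroupOf_iff_le_normalizer hCN).2 le_rfl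
  let π := QuotientGroup.mk' C'
  set x' := π ⟨x, hxN⟩ with hx'
  have hxp : x' ^ p ^ a = 1 := by
    rw [hx', ← map_pow]
    exact (QuotientGroup.eq_one_iff _).2 (Subgroup.mem_zpowers (x ^ p ^ a))
  have hpg : IsPGroup p (Subgroup.zpowers x') := by
    intro ⟨y, hy⟩
    obtain ⟨k, rfl⟩ := Subgroup.mem_zpowers_iff.1 hy
    refine ⟨a, Subtype.ext ?_⟩
    simp only [Subgroup.coe_pow, Subgroup.coe_one]
    rw [← zpow_natCast, ← zpow_mul, mul_comm, zpow_mul, zpow_natCast, hxp, one_zpow]
  obtain ⟨P, hP⟩ := hpg.exists_le_sylow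
  set H' := (P : Subgroup (N ⧸ C')).comap π
  set H := H'.map N.subtype
  have hCH' : C' ≤ H' := fun c hc => by
    show π c ∈ (P : Subgroup _)
    rw [show π c = 1 from (QuotientGroup.eq_one_iff _).2 hc]
    exact one_mem _
  have hH'c : Nat.card H' = Nat.card (P : Subgroup (N ⧸ C')) * Nat.card C' := by
    have h1 := H'.card_mul_index
    rw [(P : Subgroup (N ⧸ C')).index_comap_of_surjective (QuotientGroup.mk'_surjective C'),
      C'.card_eq_card_quotient_mul_card_subgroup, ← (P : Subgroup (N ⧸ C')).card_mul_index] at h1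
    exact Nat.eq_of_mul_eq_mul_right (Nat.pos_of_ne_zero Subgroup.index_ne_zero_of_finite)
      (h1.trans (by ring))
  refine ⟨H, ⟨hp, C, ?_, Subgroup.map_subtype_le _, inferInstance, ?_, ?_⟩, ?_⟩
  · intro c hc
    exact ⟨⟨c, hCN hc⟩, hCH' hc, rfl⟩
  · rw [hCc]; exact ((Nat.Prime.coprime_iff_not_dvd hp).2 hm).symm
  · obtain ⟨k, hk⟩ := IsPGroup.iff_card.1 P.2
    refine ⟨k, ?_⟩
    have h1 : C.relIndex H = C'.relIndex H' := by
      rw [← Subgroup.relIndex_map_map_of_injective C' H' N.subtype_injective,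
        Subgroup.map_subgroupOf_eq_of_le hCN]
    rw [h1, ← hk]
    have := (C'.subgroupOf H').card_mul_index
    rw [Nat.card_congr (Subgroup.subgroupOfEquivOfLe hCH').toEquiv, hH'c, mul_comm (Nat.card _)] at this
    exact Nat.eq_of_mul_eq_mul_right Nat.card_pos (by simpa [Subgroup.relIndex] using this)
  · have hHc : Nat.card H = Nat.card (P : Subgroup (N ⧸ C')) * Nat.card C' := by
      rw [← hH'c]; exact Subgroup.card_map_of_injective N.subtype_injective
    have key : ∀ g : G, g⁻¹ * x * g ∈ H → g ∈ N := by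
      intro g hg
      have hy : g⁻¹ * x ^ p ^ a * g ∈ H := by
        have hpw : (g⁻¹ * x * g) ^ p ^ a = g⁻¹ * x ^ p ^ a * g := by
          have h := (conj_pow (a := g⁻¹) (b := x) (i := p ^ a))
          rwa [inv_inv] at h
        rw [← hpw]
        exact H.pow_mem hg _
      obtain ⟨z, hz, hze⟩ := hy
      have hzm : z ^ m = 1 := by
        apply Subtype.ext
        simp only [Subgroup.coe_pow, Subgroup.coe_one]
        rw [show (z : G) = g⁻¹ * x ^ p ^ a * g from hze]
        have hpw : (g⁻¹ * x ^ p ^ a * g) ^ m = g⁻¹ * (x ^ p ^ a) ^ m * g := by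
          have h := (conj_pow (a := g⁻¹) (b := x ^ p ^ a) (i := m))
          rwa [inv_inv] at h
        rw [hpw, ← hoy, pow_orderOf_eq_one]
        simp
      have hz1 : π z = 1 := by
        obtain ⟨j, hj⟩ := IsPGroup.iff_orderOf.1 P.2 (⟨π z, hz⟩ : (P : Subgroup (N ⧸ C')))
        have h1 : orderOf (π z) ∣ m := orderOf_dvd_of_pow_eq_one (by rw [← map_pow, hzm, map_one])
        rw [← Subgroup.orderOf_coe] at hj
        rw [hj] at h1
        rcases Nat.eq_zero_or_pos j with hj0 | hj0
        · rwa [hj0, pow_zero, orderOf_eq_one_iff] at hj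
        · exact absurd ((dvd_pow_self p hj0.ne').trans h1) hm
      have hzC : g⁻¹ * x ^ p ^ a * g ∈ C := by
        have := (QuotientGroup.eq_one_iff _).1 hz1
        rw [← show (z : G) = g⁻¹ * x ^ p ^ a * g from hze]
        exact this
      have hle : C.map (MulAut.conj g⁻¹).toMonoidHom = C := by
        refine Subgroup.eq_of_le_of_card_ge ?_ ?_
        · rw [hC, MonoidHom.map_zpowers, Subgroup.zpowers_le]
          simpa [← hC] using hzC
        · rw [Subgroup.card_map_of_injective (MulAut.conj g⁻¹).injective]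
      have hg' : g⁻¹ ∈ N := Subgroup.mem_normalizer_iff_map_conj_eq.2 hle
      simpa using N.inv_mem hg'
    let F : Set (G ⧸ H) := MulAction.fixedBy (G ⧸ H) x
    let F' : Set ((N ⧸ C') ⧸ (P : Subgroup (N ⧸ C'))) := MulAction.fixedBy _ x'
    have hF : ∀ g : G, (g : G ⧸ H) ∈ F ↔ g⁻¹ * x * g ∈ H := by
      intro g
      show (↑(x * g) : G ⧸ H) = g ↔ _
      rw [eq_comm, QuotientGroup.eq, mul_assoc]
    have hF' : ∀ q : N ⧸ C', (q : (N ⧸ C') ⧸ (P : Subgroup (N ⧸ C'))) ∈ F' ↔
        q⁻¹ * x' * q ∈ (P : Subgroup (N ⧸ C')) := by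
      intro q
      show (↑(x' * q) : (N ⧸ C') ⧸ (P : Subgroup (N ⧸ C'))) = q ↔ _
      rw [eq_comm, QuotientGroup.eq, mul_assoc]
    have hcount : Nat.card F * Nat.card H =
        Nat.card F' * (Nat.card (P : Subgroup (N ⧸ C')) * Nat.card C') := by
      have e1 : Nat.card {g : G // (g : G ⧸ H) ∈ F} = Nat.card H * Nat.card F := by
        rw [← Nat.card_prod]
        exact Nat.card_congr (QuotientGroup.preimageMkEquivSubgroupProdSet H F)
      have e2 : Nat.card {q : N ⧸ C' // (q : (N ⧸ C') ⧸ (P : Subgroup (N ⧸ C'))) ∈ F'} =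
          Nat.card (P : Subgroup (N ⧸ C')) * Nat.card F' := by
        rw [← Nat.card_prod]
        exact Nat.card_congr (QuotientGroup.preimageMkEquivSubgroupProdSet _ F')
      let S : Set (N ⧸ C') := {q | (q : (N ⧸ C') ⧸ (P : Subgroup (N ⧸ C'))) ∈ F'}
      have e3 : Nat.card {n : N // (n : N ⧸ C') ∈ S} = Nat.card C' * Nat.card S := by
        rw [← Nat.card_prod]
        exact Nat.card_congr (QuotientGroup.preimageMkEquivSubgroupProdSet C' S)
      have hiff : ∀ n : N, ((n : G) : G ⧸ H) ∈ F ↔ (n : N ⧸ C') ∈ S := by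
        intro n
        rw [hF]
        show _ ↔ ((n : N ⧸ C') : (N ⧸ C') ⧸ (P : Subgroup (N ⧸ C'))) ∈ F'
        rw [hF']
        constructor
        · rintro ⟨z, hz, hze⟩
          have : z = n⁻¹ * ⟨x, hxN⟩ * n := Subtype.ext hze
          rw [this] at hz
          exact hz
        · intro h
          exact ⟨n⁻¹ * ⟨x, hxN⟩ * n, h, rfl⟩
      have e4 : Nat.card {g : G // (g : G ⧸ H) ∈ F} = Nat.card {n : N // (n : N ⧸ C') ∈ S} :=
        Nat.card_congr
          { toFun := fun g => ⟨⟨g.1, key g.1 ((hF g.1).1 g.2)⟩, (hiff _).1 g.2⟩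
            invFun := fun n => ⟨n.1, (hiff n.1).2 n.2⟩
            left_inv := fun _ => rfl
            right_inv := fun _ => rfl }
      rw [mul_comm, ← e1, e4, e3]
      show Nat.card C' * Nat.card {q : N ⧸ C' // (q : (N ⧸ C') ⧸ (P : Subgroup (N ⧸ C'))) ∈ F'} = _
      rw [e2]; ring
    rw [hHc] at hcount
    have hFF : Nat.card F = Nat.card F' :=
      Nat.eq_of_mul_eq_mul_right (Nat.mul_pos Nat.card_pos Nat.card_pos) hcount
    show ¬ (p : ℤ) ∣ (Nat.card F : ℤ)
    rw [Int.natCast_dvd_natCast, hFF]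
    have hmod := hpg.card_modEq_card_fixedPoints ((N ⧸ C') ⧸ (P : Subgroup (N ⧸ C')))
    have hfix : Nat.card (MulAction.fixedPoints (Subgroup.zpowers x')
        ((N ⧸ C') ⧸ (P : Subgroup (N ⧸ C')))) = Nat.card F' := by
      apply Nat.card_congr
      refine Equiv.subtypeEquivRight fun q => ?_
      constructor
      · intro h
        exact h ⟨x', Subgroup.mem_zpowers x'⟩
      · rintro h ⟨y, hy⟩
        have hs : Subgroup.zpowers x' ≤ MulAction.stabilizer (N ⧸ C') q :=
          Subgroup.zpowers_le.2 h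
        exact hs hy
    rw [hfix] at hmod
    intro hd
    apply P.not_dvd_index
    rw [Subgroup.index_eq_card]
    exact hmod.symm.dvd_iff dvd_rfl |>.1 hd


theorem natMul_mem_qeRingP [Finite G] (p : ℕ) [Fact p.Prime] :
    ∃ m : ℤ, ¬ (p : ℤ) ∣ m ∧ (fun _ => m : G → ℤ) ∈ qeRingP p G := by
  classical
  have : Fintype G := Fintype.ofFinite G
  have hpI : Prime (p : ℤ) := Nat.prime_iff_prime_int.1 Fact.out
  have hs : ∀ s : Finset G, ∃ f ∈ qeRingP p G, ∃ m : ℤ, ¬ (p : ℤ) ∣ m ∧ ∀ x ∈ s, f x = m := by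
    intro s
    induction s using Finset.induction with
    | empty => exact ⟨0, zero_mem _, 1, hpI.not_dvd_one, by simp⟩
    | insert x s _ ih =>
      obtain ⟨f, hf, m, hm, hf1⟩ := ih
      obtain ⟨H, hH, hc⟩ := exists_permChar_not_dvd x p
      have hg : permChar H ∈ qeRingP p G := AddSubgroup.subset_closure ⟨H, hH, rfl⟩
      refine ⟨m • permChar H + permChar H x • f - f * permChar H,
        sub_mem (add_mem (zsmul_mem hg _) (zsmul_mem hf _)) (qeRingP_mul hf hg), permChar H x * m,
        fun h => (hpI.dvd_mul.1 h).elim hc hm, fun y hy => ?_⟩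
      simp only [Pi.sub_apply, Pi.add_apply, Pi.smul_apply, Pi.mul_apply, smul_eq_mul]
      rcases Finset.mem_insert.1 hy with rfl | hy
      · ring
      · rw [hf1 y hy]; ring
  obtain ⟨f, hf, m, hm, hf1⟩ := hs Finset.univ
  exact ⟨m, hm, by rwa [show (fun _ => m : G → ℤ) = f from funext fun x => (hf1 x (Finset.mem_univ x)).symm]⟩

/-- An elementary subgroup of a quasi-elementary group for `p` is elementary for `p`. -/
theorem elementary_of_qe [Finite G] {p q : ℕ} {E : Subgroup G} (hQ : IsQEp p E) (hq : q.Prime)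
    (hE : Cfsg.IsElementary q E) : Cfsg.IsElementary p E := by
  by_cases hqp : q = p
  · exact hqp ▸ hE
  obtain ⟨hp, C, hCE, hEN, hcyc, hco, k, hk⟩ := hQ
  haveI := Fact.mk hq
  haveI hn : (C.subgroupOf E).Normal := (Subgroup.normal_subgroupOf_iff_le_normalizer hCE).2 hEN
  haveI := hcyc
  have hcyc' : IsCyclic (C.subgroupOf E) :=
    isCyclic_of_surjective (Subgroup.subgroupOfEquivOfLe hCE).symm.toMonoidHom (MulEquiv.surjective _)
  obtain ⟨x, hxc, hxq, j, hj⟩ := hE
  obtain ⟨Q⟩ := (inferInstance : Nonempty (Sylow q E))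
  have hcardE : orderOf x * q ^ j = Nat.card E := by rw [← Nat.card_zpowers, ← hj, Subgroup.card_mul_index]
  have hQc : Nat.card (Q : Subgroup E) = q ^ j := by
    rw [Q.card_eq_multiplicity, ← hcardE, Nat.factorization_mul (orderOf_pos x).ne' (pow_ne_zero _ hq.ne_zero),
      Finsupp.add_apply, hq.factorization_pow, Finsupp.single_eq_same,
      Nat.factorization_eq_zero_of_not_dvd fun hd => hq.one_lt.ne' (Nat.eq_one_of_dvd_coprimes hxq hd dvd_rfl),
      zero_add]
  have hcompl : Subgroup.IsComplement' (Subgroup.zpowers x) (Q : Subgroup E) :=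
    Subgroup.isComplement'_of_coprime (by rw [Nat.card_zpowers, hQc, hcardE])
      (by rw [Nat.card_zpowers, hQc]; exact hxq.pow_right j)
  have hQC : ∀ u ∈ (Q : Subgroup E), u ∈ C.subgroupOf E := by
    intro u hu
    rw [← QuotientGroup.eq_one_iff, ← orderOf_eq_one_iff]
    have h1 : orderOf (u : E ⧸ C.subgroupOf E) ∣ q ^ j :=
      (orderOf_map_dvd (QuotientGroup.mk' _) u).trans (hQc ▸ Subgroup.orderOf_dvd_natCard _ hu)
    have h2 : orderOf (u : E ⧸ C.subgroupOf E) ∣ p ^ k := by
      rw [← hk]; exact orderOf_dvd_natCard _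
    exact Nat.eq_one_of_dvd_coprimes
      (Nat.Coprime.pow _ _ ((Nat.coprime_primes hq hp).2 hqp)) h1 h2
  have hx : ∀ (i : ℤ) (u : E), Commute (x ^ i) u := fun i u =>
    Commute.zpow_left (Subgroup.mem_center_iff.1 hxc u).symm i
  obtain ⟨c, hc⟩ := hcyc'.exists_generator
  have hCcomm : ∀ a ∈ C.subgroupOf E, ∀ b ∈ C.subgroupOf E, a * b = b * a := fun a ha b hb => by
    haveI : IsMulCommutative (C.subgroupOf E) := IsCyclic.isMulCommutative
    exact congrArg Subtype.val (IsMulCommutative.is_comm.comm (⟨a, ha⟩ : C.subgroupOf E) ⟨b, hb⟩)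
  refine ⟨(c : E), Subgroup.mem_center_iff.2 fun z => ?_, ?_, k, ?_⟩
  · obtain ⟨⟨⟨a, i, rfl⟩, u⟩, rfl⟩ := hcompl.2 z
    show x ^ i * (u : E) * c = c * (x ^ i * u)
    rw [mul_assoc, hCcomm _ (hQC u u.2) _ c.2, ← mul_assoc, (hx i c).eq, mul_assoc]
  · rw [Subgroup.orderOf_coe]
    refine Nat.Coprime.coprime_dvd_left ?_ hco
    rw [← Nat.card_congr (Subgroup.subgroupOfEquivOfLe hCE).toEquiv]
    exact orderOf_dvd_natCard c
  · have hz : Subgroup.zpowers (c : E) = C.subgroupOf E :=
      le_antisymm (Subgroup.zpowers_le.2 c.2) fun y hy => by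
        obtain ⟨i, hi⟩ := Subgroup.mem_zpowers_iff.1 (hc ⟨y, hy⟩)
        exact Subgroup.mem_zpowers_iff.2 ⟨i, by simpa using congrArg Subtype.val hi⟩
    rw [hz]; exact hk

/-- Functions induced from characters of `p`-elementary subgroups. -/
def localSpan (p : ℕ) (G : Type u) [Group G] [Fintype G] : AddSubgroup (G → ℂ) :=
  AddSubgroup.closure {f | ∃ (E : Subgroup G) (φ : E → ℂ), Cfsg.IsElementary p E ∧ Cfsg.IsCharacter E φ ∧
    f = Cfsg.indFun E φ}

theorem indFun_one_mem [Fintype G] {p : ℕ} {H : Subgroup G} (hH : IsQEp p H) :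
    Cfsg.indFun H (fun _ => (1 : ℂ)) ∈ localSpan p G := by
  haveI := Fintype.ofFinite H
  have h1 : (fun _ => 1 : H → ℂ) ∈ monomialSpan H :=
    isCharacter_mem_monomialSpan (CharBasics.isCharacter_of_irr CharBasics.isIrrCharacter_one)
  have : monomialSpan H ≤ (localSpan p G).comap (indLin H).toAddMonoidHom := by
    refine (AddSubgroup.closure_le _).2 ?_
    rintro _ ⟨E, l, ⟨q, hq, hE⟩, rfl⟩
    show Cfsg.indFun H _ ∈ localSpan p G
    rw [indFun_trans]
    exact AddSubgroup.subset_closure ⟨E.map H.subtype, _,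
      elementary_of_qe (hH.mono (Subgroup.map_subtype_le _)) hq
        (isElementary_of_equiv (E.equivMapOfInjective H.subtype H.subtype_injective) hE),
      isCharacter_linear (l.comp (E.equivMapOfInjective H.subtype H.subtype_injective).symm.toMonoidHom), rfl⟩
  exact this h1

/-- Brauer's local induction theorem. -/
theorem local_induction [Fintype G] (p : ℕ) [Fact p.Prime] :
    ∃ m : ℤ, ¬ (p : ℤ) ∣ m ∧ (fun _ => (m : ℂ) : G → ℂ) ∈ localSpan p G := by
  obtain ⟨m, hm, hmem⟩ := natMul_mem_qeRingP (G := G) p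
  refine ⟨m, hm, ?_⟩
  let c : (G → ℤ) →+ (G → ℂ) :=
    { toFun := fun f g => (f g : ℂ)
      map_zero' := by funext g; simp
      map_add' := fun a b => by funext g; simp }
  have h : qeRingP p G ≤ (localSpan p G).comap c := by
    refine (AddSubgroup.closure_le _).2 ?_
    rintro _ ⟨H, hH, rfl⟩
    show (fun g => ((permChar H g : ℤ) : ℂ)) ∈ localSpan p G
    have : (fun g => ((permChar H g : ℤ) : ℂ)) = Cfsg.indFun H (fun _ => (1 : ℂ)) := by
      funext g
      rw [indFun_const_one_eq_card_fixedBy, permChar, Int.cast_natCast]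
    rw [this]
    exact indFun_one_mem hH
  exact h hmem

end CfsgLib.BrauerLocal
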